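import Cfsg.Agent.L34Mult.Pairing
import Cfsg.Agent.Classical.Linear.Generation

/-! A stem extension of `PSL₃(4)` with kernel `ℤ/3 × ℤ/4 × ℤ/4`. -/

set_option autoImplicit false

open scoped commutatorElement

namespace CfsgLib.L34Mult

open CfsgLib.CosetEnum.Suz.G2 Matrix CfsgLib.SuzukiEight

local notation "SL3" => Matrix.SpecialLinearGroup (Fin 3) F4
local notation "PSL3" => Matrix.ProjectiveSpecialLinearGroup (Fin 3) F4

/-- A perfect stem extension of a group is one of each central quotient of that group. -/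
theorem isStem_comp_central {E G Q : Type*} [Group E] [Group G] [Group Q] {σ : E →* G}
    (hσ : Cfsg.IsStemExtension σ) (hE : commutator E = ⊤) {q : G →* Q} (hq : Function.Surjective q)
    (hker : q.ker ≤ Subgroup.center G) : Cfsg.IsStemExtension (q.comp σ) := by
  refine ⟨hq.comp hσ.1, fun x hx => ?_, by rw [hE]; exact le_top⟩
  have hxc : σ x ∈ Subgroup.center G := hker hx
  have hz : ∀ g, ⁅x, g⁆ ∈ Subgroup.center E := fun g => hσ.2.1 (by
    rw [MonoidHom.mem_ker, map_commutatorElement, commutatorElement_eq_one_iff_mul_comm]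
    exact (Subgroup.mem_center_iff.1 hxc _).symm)
  letI : CommGroup (Subgroup.center E) :=
    { (inferInstance : Group (Subgroup.center E)) with
      mul_comm := fun a b => Subtype.ext (Subgroup.mem_center_iff.1 b.2 a) }
  let φ : E →* Subgroup.center E :=
    { toFun := fun g => ⟨⁅x, g⁆, hz g⟩
      map_one' := Subtype.ext (by simp)
      map_mul' := fun g h => Subtype.ext (by
        have e := Subgroup.mem_center_iff.1 (hz h) g
        show ⁅x, g * h⁆ = ⁅x, g⁆ * ⁅x, h⁆
        calc ⁅x, g * h⁆ = ⁅x, g⁆ * (g * ⁅x, h⁆ * g⁻¹) := by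
              simp only [commutatorElement_def]; group
          _ = ⁅x, g⁆ * ⁅x, h⁆ := by rw [e, mul_inv_cancel_right]) }
  rw [Subgroup.mem_center_iff]
  intro g
  have hg : g ∈ commutator E := by rw [hE]; exact Subgroup.mem_top g
  have h1 : φ g = 1 := Abelianization.commutator_subset_ker φ hg
  have h2 : ⁅x, g⁆ = 1 := congrArg Subtype.val h1
  exact (commutatorElement_eq_one_iff_mul_comm.1 h2).symm

/-- A matrix entry. -/
def ent (g : SL3) (a b : Fin 3) : F4 := g.1 a b

/-- The element with trivial base. -/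
def inW : Multiplicative W →* Ext cocycle where
  toFun v := ⟨1, v.toAdd⟩
  map_one' := rfl
  map_mul' v w := by
    simp [mul_def, cocycle.one_left]

theorem inW_mem (v : Multiplicative W) : inW v ∈ commutator (Ext cocycle) := by
  have h1 : inW (Multiplicative.ofAdd ((1, 0) : W)) ∈ commutator (Ext cocycle) := by
    have := commutator_lift (c := cocycle) utri_comm_one.1
    rw [cocycle_sub, pairing_one] at this
    show (⟨1, (1, 0)⟩ : Ext cocycle) ∈ _
    rw [← this]
    exact Subgroup.commutator_mem_commutator (Subgroup.mem_top _) (Subgroup.mem_top _)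
  have h2 : inW (Multiplicative.ofAdd ((2, 1) : W)) ∈ commutator (Ext cocycle) := by
    have := commutator_lift (c := cocycle) utri_comm_one.2
    rw [cocycle_sub, pairing_two] at this
    show (⟨1, (2, 1)⟩ : Ext cocycle) ∈ _
    rw [← this]
    exact Subgroup.commutator_mem_commutator (Subgroup.mem_top _) (Subgroup.mem_top _)
  have key : ∀ w : W, ∃ i j : Fin 4, w = (i : ℕ) • ((1, 0) : W) + (j : ℕ) • ((2, 1) : W) := by
    decide +kernel
  obtain ⟨i, j, hij⟩ := key v.toAdd
  have hv : v = Multiplicative.ofAdd ((1, 0) : W) ^ (i : ℕ) * Multiplicative.ofAdd ((2, 1) : W) ^ (j : ℕ) := by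
    rw [← ofAdd_nsmul, ← ofAdd_nsmul, ← ofAdd_add, ← hij, ofAdd_toAdd]
  rw [hv, map_mul, map_pow, map_pow]
  exact mul_mem (pow_mem h1 _) (pow_mem h2 _)

theorem isStem_proj : Cfsg.IsStemExtension (proj cocycle) := by
  refine ⟨fun g => ⟨⟨g, 0⟩, rfl⟩, ker_proj_le_center, ?_⟩
  rintro ⟨b, v⟩ (hb : b = 1)
  subst hb
  exact inW_mem (Multiplicative.ofAdd v)

theorem commutator_ext : commutator (Ext cocycle) = ⊤ := by
  have hp : commutator SL3 = ⊤ :=
    CfsgLib.Classical.Linear.commutator_sl_eq_top_of_three_le (by simp)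
  refine eq_top_iff.2 fun x _ => ?_
  have hx : proj cocycle x ∈ (commutator (Ext cocycle)).map (proj cocycle) := by
    rw [commutator_def, Subgroup.map_commutator, ← MonoidHom.range_eq_map,
      MonoidHom.range_eq_top.2 isStem_proj.1, ← commutator_def, hp]
    exact Subgroup.mem_top _
  obtain ⟨y, hy, hxy⟩ := hx
  have hk : y⁻¹ * x ∈ (proj cocycle).ker := by
    rw [MonoidHom.mem_ker, map_mul, map_inv, hxy, inv_mul_cancel]
  simpa using mul_mem hy (isStem_proj.2.2 hk)

/-- The extension of `PSL₃(4)`. -/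
def toPSL3 : Ext cocycle →* PSL3 :=
  (QuotientGroup.mk' (Subgroup.center SL3)).comp (proj cocycle)

theorem isStem_toPSL3 : Cfsg.IsStemExtension toPSL3 :=
  isStem_comp_central isStem_proj commutator_ext (QuotientGroup.mk'_surjective _)
    (QuotientGroup.ker_mk' _).le

theorem exists_inW {y : Ext cocycle} (h : y.base = 1) : ∃ v, y = inW v :=
  ⟨Multiplicative.ofAdd y.val, Ext.ext h rfl⟩

/-- A scalar matrix of order three. -/
def scalarOm : SL3 := ⟨!![.om, 0, 0; 0, .om, 0; 0, 0, .om], by decide +kernel⟩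

theorem center_eq (z : SL3) (hz : z ∈ Subgroup.center SL3) : ∃ i : Fin 3, z = scalarOm ^ (i : ℕ) := by
  obtain ⟨r, hr, hrz⟩ := Matrix.SpecialLinearGroup.mem_center_iff.1 hz
  have key : ∀ r : F4, r ^ Fintype.card (Fin 3) = 1 → ∃ i : Fin 3,
      ∀ a b : Fin 3, (if a = b then r else 0) = ent (scalarOm ^ (i : ℕ)) a b := by
    decide +kernel
  obtain ⟨i, hi⟩ := key r hr
  refine ⟨i, Subtype.ext (hrz.symm.trans (Matrix.ext fun a b => ?_))⟩
  rw [Matrix.scalar_apply, Matrix.diagonal_apply]
  exact hi a b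

/-- An element of order three over `scalarOm`. -/
def omegaLift : Ext cocycle := ⟨scalarOm, 0⟩ ^ 4

theorem omegaLift_cube : omegaLift ^ 3 = 1 := by
  have h : ((⟨scalarOm, 0⟩ : Ext cocycle) ^ 3).base = 1 := by
    show proj cocycle (_ ^ 3) = 1
    rw [map_pow]
    show scalarOm ^ 3 = 1
    decide +kernel
  obtain ⟨v, hv⟩ := exists_inW h
  have h4 : ∀ w : W, 4 • w = 0 := by decide +kernel
  rw [omegaLift, ← pow_mul, Nat.mul_comm, pow_mul, hv, ← map_pow]
  have : v ^ 4 = 1 := h4 v.toAdd
  rw [this, map_one]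

theorem omegaLift_base : omegaLift.base = scalarOm := by
  show proj cocycle (_ ^ 4) = scalarOm
  rw [map_pow]
  show scalarOm ^ 4 = scalarOm
  decide +kernel

theorem omegaLift_mem : omegaLift ∈ toPSL3.ker := by
  show toPSL3 omegaLift = 1
  show ((omegaLift.base : SL3) : PSL3) = 1
  rw [omegaLift_base, QuotientGroup.eq_one_iff, Matrix.SpecialLinearGroup.mem_center_iff]
  refine ⟨.om, by decide +kernel, Matrix.ext fun a b => ?_⟩
  rw [Matrix.scalar_apply, Matrix.diagonal_apply]
  exact (show ∀ a b : Fin 3, (if a = b then F4.om else 0) = ent scalarOm a b by decide +kernel) a b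

theorem inW_mem_ker (v : Multiplicative W) : inW v ∈ toPSL3.ker := by
  show ((1 : SL3) : PSL3) = 1
  rfl

/-- The kernel is `ℤ/3 × ℤ/4 × ℤ/4`. -/
theorem exists_kerEquiv :
    Nonempty (toPSL3.ker ≃* Multiplicative (ZMod 3 × ZMod 4 × ZMod 4)) := by
  have hc := isStem_toPSL3.2.1
  let φ : Multiplicative (ZMod 3 × W) →* toPSL3.ker :=
    { toFun := fun p => ⟨omegaLift ^ p.toAdd.1.val * inW (Multiplicative.ofAdd p.toAdd.2),
        mul_mem (pow_mem omegaLift_mem _) (inW_mem_ker _)⟩
      map_one' := Subtype.ext (by simp [show Multiplicative.ofAdd (0 : W) = 1 from rfl])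
      map_mul' := fun p q => Subtype.ext (by
        show omegaLift ^ (p.toAdd.1 + q.toAdd.1).val * inW (Multiplicative.ofAdd (p.toAdd.2 + q.toAdd.2)) =
          omegaLift ^ p.toAdd.1.val * inW (Multiplicative.ofAdd p.toAdd.2) *
            (omegaLift ^ q.toAdd.1.val * inW (Multiplicative.ofAdd q.toAdd.2))
        have e : omegaLift ^ (p.toAdd.1 + q.toAdd.1).val = omegaLift ^ p.toAdd.1.val * omegaLift ^ q.toAdd.1.val := by
          rw [← pow_add, ZMod.val_add, ← pow_eq_pow_mod _ omegaLift_cube]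
        have hcomm : Commute (inW (Multiplicative.ofAdd p.toAdd.2)) (omegaLift ^ q.toAdd.1.val) :=
          (Subgroup.mem_center_iff.1 (hc (inW_mem_ker _)) _).symm
        rw [e, ofAdd_add, map_mul, hcomm.mul_mul_mul_comm]) }
  have hb : ∀ p, (φ p).1.base = scalarOm ^ p.toAdd.1.val := fun p => by
    show proj cocycle (omegaLift ^ _ * _) = _
    rw [map_mul, map_pow]
    show omegaLift.base ^ _ * 1 = _
    rw [omegaLift_base, mul_one]
  have hinj : Function.Injective φ := by
    rw [injective_iff_map_eq_one]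
    intro p hp
    have h1 : scalarOm ^ p.toAdd.1.val = 1 := by rw [← hb p, hp]; rfl
    have key : ∀ i : ZMod 3, scalarOm ^ i.val = 1 → i = 0 := by decide +kernel
    have hi := key _ h1
    have h2 : (φ p).1 = 1 := congrArg Subtype.val hp
    simp only [φ, MonoidHom.coe_mk, OneHom.coe_mk, hi, ZMod.val_zero, pow_zero, one_mul] at h2
    have h3 : p.toAdd.2 = 0 := congrArg Ext.val h2
    exact Multiplicative.toAdd.injective (Prod.ext hi h3)
  have hsurj : Function.Surjective φ := by
    rintro ⟨x, hx⟩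
    obtain ⟨i, hi⟩ := center_eq _ ((QuotientGroup.eq_one_iff _).1 hx : x.base ∈ Subgroup.center SL3)
    have hm : proj cocycle (((omegaLift ^ (i : ℕ)))⁻¹ * x) = 1 := by
      rw [map_mul, map_inv, map_pow]
      show (omegaLift.base ^ (i : ℕ))⁻¹ * x.base = 1
      rw [omegaLift_base, ← hi, inv_mul_cancel]
    refine ⟨Multiplicative.ofAdd ((i : ℕ), (((omegaLift ^ (i : ℕ)))⁻¹ * x).val), Subtype.ext ?_⟩
    show omegaLift ^ ((i : ℕ) : ZMod 3).val * inW (Multiplicative.ofAdd _) = x
    rw [ZMod.val_natCast, Nat.mod_eq_of_lt i.isLt, toAdd_ofAdd]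
    have : inW (Multiplicative.ofAdd ((omegaLift ^ (i : ℕ))⁻¹ * x).val) = (omegaLift ^ (i : ℕ))⁻¹ * x :=
      Ext.ext hm.symm rfl
    rw [this, mul_inv_cancel_left]
  exact ⟨(MulEquiv.ofBijective φ ⟨hinj, hsurj⟩).symm⟩

theorem exists_stem :
    ∃ (Γ : Type) (_ : Group Γ) (_ : Finite Γ) (σ : Γ →* PSL3), Cfsg.IsStemExtension σ ∧
      Nonempty (σ.ker ≃* Multiplicative (ZMod 3 × ZMod 4 × ZMod 4)) :=
  ⟨Ext cocycle, inferInstance, inferInstance, toPSL3, isStem_toPSL3, exists_kerEquiv⟩

end CfsgLib.L34Mult
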