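import Cfsg.Agent.L34Mult.TwoPart
import Cfsg.Agent.L34Mult.Cover
import Cfsg.Agent.PSL34.Central
import Cfsg.Agent.Schur.PrimePart
import Cfsg.Agent.Schur.StemSylow

/-! The Schur multiplier of `PSL₃(4)`: the upper bound. -/

set_option autoImplicit false

open scoped commutatorElement

namespace CfsgLib.L34Mult

open CfsgLib.CosetEnum.Suz.G2 CfsgLib.PSL34

local notation "SL3" => Matrix.SpecialLinearGroup (Fin 3) F4
local notation "P3" => Matrix.ProjectiveSpecialLinearGroup (Fin 3) F4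

theorem center_card : Nat.card (Subgroup.center SL3) = 3 := by
  have hz : Subgroup.center SL3 = Subgroup.zpowers scalarOm := by
    refine le_antisymm (fun z hz => ?_) ((Subgroup.zpowers_le).2 ?_)
    · obtain ⟨i, rfl⟩ := center_eq z hz
      exact pow_mem (Subgroup.mem_zpowers _) _
    · rw [Matrix.SpecialLinearGroup.mem_center_iff]
      refine ⟨.om, by decide +kernel, Matrix.ext fun a b => ?_⟩
      rw [Matrix.scalar_apply, Matrix.diagonal_apply]
      exact (show ∀ a b : Fin 3, (if a = b then F4.om else 0) = ent scalarOm a b by decide +kernel) a b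
  rw [hz, Nat.card_zpowers]
  haveI : Fact (Nat.Prime 3) := ⟨Nat.prime_three⟩
  exact orderOf_eq_prime (by decide +kernel) (by decide +kernel)

theorem card_P3 : Nat.card P3 = 20160 := by
  have h := Subgroup.card_eq_card_quotient_mul_card_subgroup (Subgroup.center SL3)
  rw [card_SL_three F4.card_eq, center_card] at h
  show Nat.card (SL3 ⧸ Subgroup.center SL3) = 20160
  omega

/-- A diagonal element of order three. -/
def diagT : SL3 := ⟨!![1, 0, 0; 0, .om, 0; 0, 0, .om'], by decide +kernel⟩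
/-- A cyclic permutation of the coordinates. -/
def permP : SL3 := ⟨!![0, 0, 1; 1, 0, 0; 0, 1, 0], by decide +kernel⟩

theorem exists_three : ∃ H : Subgroup P3, ¬ 3 ∣ H.index ∧
    ∃ a b : P3, H ≤ Subgroup.closure {a, b} ∧ a ^ 3 = 1 ∧ Commute a b := by
  haveI : Finite P3 := inferInstance
  set a : P3 := toPSL diagT
  set b : P3 := toPSL permP
  have ha : a ^ 3 = 1 := by
    rw [← map_pow, show diagT ^ 3 = 1 by decide +kernel, map_one]
  have hb : b ^ 3 = 1 := by
    rw [← map_pow, show permP ^ 3 = 1 by decide +kernel, map_one]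
  have hs : scalarOm ∈ Subgroup.center SL3 := by
    rw [Matrix.SpecialLinearGroup.mem_center_iff]
    refine ⟨.om, by decide +kernel, Matrix.ext fun a b => ?_⟩
    rw [Matrix.scalar_apply, Matrix.diagonal_apply]
    exact (show ∀ a b : Fin 3, (if a = b then F4.om else 0) = ent scalarOm a b by decide +kernel) a b
  have hab : Commute a b := by
    obtain ⟨i, hi⟩ := (show ∃ i : Fin 3, diagT * permP = permP * diagT * scalarOm ^ (i : ℕ) by decide +kernel)
    show a * b = b * a
    rw [← map_mul, hi, map_mul, map_mul, map_pow, show toPSL scalarOm = 1 from (QuotientGroup.eq_one_iff _).2 hs,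
      one_pow, mul_one]
  let φ : Multiplicative (ZMod 3 × ZMod 3) →* P3 :=
    { toFun := fun p => a ^ p.toAdd.1.val * b ^ p.toAdd.2.val
      map_one' := by simp
      map_mul' := fun p q => by
        show a ^ (p.toAdd.1 + q.toAdd.1).val * b ^ (p.toAdd.2 + q.toAdd.2).val = _
        rw [ZMod.val_add, ZMod.val_add, ← pow_eq_pow_mod _ ha, ← pow_eq_pow_mod _ hb, pow_add, pow_add,
          (hab.pow_pow _ _).mul_mul_mul_comm] }
  have hinj : Function.Injective φ := by
    rw [injective_iff_map_eq_one]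
    intro p hp
    have h : toPSL (diagT ^ p.toAdd.1.val * permP ^ p.toAdd.2.val) = 1 := by
      rw [map_mul, map_pow, map_pow]; exact hp
    obtain ⟨i, hi⟩ := center_eq _ ((QuotientGroup.eq_one_iff _).1 h)
    have key : ∀ x y : ZMod 3, ∀ i : Fin 3, diagT ^ x.val * permP ^ y.val = scalarOm ^ (i : ℕ) →
        x = 0 ∧ y = 0 := by decide +kernel
    obtain ⟨h1, h2⟩ := key _ _ i hi
    exact Multiplicative.toAdd.injective (Prod.ext h1 h2)
  refine ⟨φ.range, ?_, a, b, ?_, ha, hab⟩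
  · intro h3
    have hc : Nat.card φ.range = 9 := by
      rw [← Nat.card_congr (MonoidHom.ofInjective hinj).toEquiv]
      simp [Nat.card_eq_fintype_card]
    have := φ.range.card_mul_index
    rw [hc, card_P3] at this
    omega
  · rintro _ ⟨p, rfl⟩
    exact mul_mem (pow_mem (Subgroup.subset_closure (Set.mem_insert a {b})) _)
      (pow_mem (Subgroup.subset_closure (Set.mem_insert_of_mem a (Set.mem_singleton b))) _)

theorem not_dvd_ker {Γ : Type*} [Group Γ] [Finite Γ] {σ : Γ →* P3} (hσ : Cfsg.IsStemExtension σ)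
    {p : ℕ} (hp : p.Prime) (h2 : p ≠ 2) (h3 : p ≠ 3) : ¬ p ∣ Nat.card σ.ker := by
  haveI := Fact.mk hp
  obtain ⟨P⟩ : Nonempty (Sylow p P3) := inferInstance
  obtain ⟨k, hk⟩ := IsPGroup.iff_card.1 P.isPGroup'
  have hd : p ^ k ∣ 20160 := by rw [← hk, ← card_P3]; exact Subgroup.card_subgroup_dvd_card _
  haveI : IsCyclic (P : Subgroup P3) := by
    rcases Nat.lt_or_ge k 2 with hk2 | hk2
    · interval_cases k
      · haveI : Subsingleton (P : Subgroup P3) := (Nat.card_eq_one_iff_unique.1 (by simpa using hk)).1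
        exact isCyclic_of_subsingleton
      · exact isCyclic_of_prime_card (by simpa using hk)
    · exfalso
      have h : p * p ∣ 20160 := by rw [← sq]; exact (pow_dvd_pow p hk2).trans hd
      have hb : p * p ≤ 20160 := Nat.le_of_dvd (by norm_num) h
      have hp' : p < 142 := by nlinarith
      have key : ∀ p < 142, ¬ (2 ≤ p ∧ p * p ∣ 20160 ∧ p ≠ 2 ∧ p ≠ 3 ∧ p.Prime) := by decide +kernel
      exact key p hp' ⟨hp.two_le, h, h2, h3, hp⟩
  exact CfsgLib.Schur.not_dvd_card_ker_of_isCyclic hσ _ P.not_dvd_index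

theorem exists_surjective {Γ : Type} [Group Γ] [Finite Γ] (σ : Γ →* P3) (hσ : Cfsg.IsStemExtension σ) :
    ∃ π : Multiplicative (ZMod 3 × ZMod 4 × ZMod 4) →* σ.ker, Function.Surjective π := by
  let E : CExt Γ P3 := ⟨σ, hσ.1, hσ.2.1⟩
  obtain ⟨U, hU64, hU⟩ := exists_uni_subgroup (F := F4) F4.card_eq
  have hidx : U.index = 315 := by
    have := U.card_mul_index
    rw [hU64, card_P3] at this
    omega
  -- elements of order a power of two
  have htwo : ∀ z ∈ σ.ker, ∀ a : ℕ, z ^ 2 ^ a = 1 → z ∈ tee E := by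
    intro z hz a ha
    refine mem_tee E hU hz (CfsgLib.Schur.mem_commutator_comap hσ U hz ?_)
    exact Nat.Coprime.coprime_dvd_left (orderOf_dvd_of_pow_eq_one ha)
      (Nat.Coprime.pow_left a (by rw [hidx]; norm_num))
  haveI : Fact (Nat.Prime 3) := ⟨Nat.prime_three⟩
  obtain ⟨H, hH3, a, b, hle, ha, hab⟩ := exists_three
  have h9 : ¬ 3 ^ 2 ∣ Nat.card σ.ker := CfsgLib.Schur.PrimePart.not_sq_dvd_of_commute hσ H hH3 hle ha hab
  -- elements of order dividing three
  obtain ⟨P⟩ : Nonempty (Sylow 3 σ.ker) := inferInstance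
  obtain ⟨k, hk⟩ := IsPGroup.iff_card.1 P.isPGroup'
  have hk1 : k ≤ 1 := by
    by_contra h
    exact h9 ((pow_dvd_pow 3 (by omega : 2 ≤ k)).trans (hk ▸ Subgroup.card_subgroup_dvd_card _))
  haveI : IsCyclic (P : Subgroup σ.ker) := by
    interval_cases k
    · haveI : Subsingleton (P : Subgroup σ.ker) := (Nat.card_eq_one_iff_unique.1 (by simpa using hk)).1
      exact isCyclic_of_subsingleton
    · exact isCyclic_of_prime_card (by simpa using hk)
  obtain ⟨g, hg⟩ := IsCyclic.exists_generator (α := (P : Subgroup σ.ker))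
  have hg3 : g ^ 3 = 1 := by
    apply orderOf_dvd_iff_pow_eq_one.1
    refine (orderOf_dvd_natCard g).trans ?_
    rw [hk]
    exact pow_dvd_pow 3 hk1 |>.trans (by norm_num)
  haveI hcomm : IsMulCommutative σ.ker := ⟨⟨fun x y => Subtype.ext (Subgroup.mem_center_iff.1 (hσ.2.1 y.2) x)⟩⟩
  have hnormal : (P : Subgroup σ.ker).Normal := by
    refine ⟨fun n hn h => ?_⟩
    rw [hcomm.is_comm.comm h n, mul_inv_cancel_right]
    exact hn
  haveI := hnormal
  haveI := P.unique_of_normal hnormal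
  have hthree : ∀ y : σ.ker, y ^ 3 = 1 → y ∈ (P : Subgroup σ.ker) := by
    intro y hy
    obtain ⟨j, -, hj⟩ := (Nat.dvd_prime_pow Nat.prime_three).1
      (show orderOf y ∣ 3 ^ 1 by simpa using orderOf_dvd_of_pow_eq_one hy)
    have hp : IsPGroup 3 (Subgroup.zpowers y) := IsPGroup.of_card (n := j) (by rw [Nat.card_zpowers, hj])
    obtain ⟨Q, hQ⟩ := hp.exists_le_sylow
    rw [Subsingleton.elim P Q]
    exact hQ (Subgroup.mem_zpowers y)
  have hk1' : k1 E ∈ σ.ker := k1_mem E
  have hk2' : k2 E ∈ σ.ker := k2_mem E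
  let c0 : σ.ker := g.1
  let c1 : σ.ker := ⟨k1 E, hk1'⟩
  let c2 : σ.ker := ⟨k2 E, hk2'⟩
  have h0 : c0 ^ 3 = 1 := by
    show ((g : σ.ker)) ^ 3 = 1
    rw [← Subgroup.coe_pow, hg3, Subgroup.coe_one]
  have h1 : c1 ^ 4 = 1 := Subtype.ext (k1_pow_four E)
  have h2 : c2 ^ 4 = 1 := Subtype.ext (k2_pow_four E)
  let π : Multiplicative (ZMod 3 × ZMod 4 × ZMod 4) →* σ.ker :=
    { toFun := fun p => c0 ^ p.toAdd.1.val * (c1 ^ p.toAdd.2.1.val * c2 ^ p.toAdd.2.2.val)
      map_one' := by simp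
      map_mul' := fun p q => by
        show c0 ^ (p.toAdd.1 + q.toAdd.1).val *
          (c1 ^ (p.toAdd.2.1 + q.toAdd.2.1).val * c2 ^ (p.toAdd.2.2 + q.toAdd.2.2).val) = _
        have hc : ∀ x y : σ.ker, Commute x y := fun x y => hcomm.is_comm.comm x y
        rw [ZMod.val_add, ZMod.val_add, ZMod.val_add, ← pow_eq_pow_mod _ h0, ← pow_eq_pow_mod _ h1,
          ← pow_eq_pow_mod _ h2, pow_add, pow_add, pow_add, (hc _ (c2 ^ p.toAdd.2.2.val)).mul_mul_mul_comm,
          (hc _ (c1 ^ p.toAdd.2.1.val * c2 ^ p.toAdd.2.2.val)).mul_mul_mul_comm] }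
  refine ⟨π, fun z => ?_⟩
  have r0 : c0 ∈ π.range := ⟨Multiplicative.ofAdd (1, 0, 0), by show c0 ^ 1 * (c1 ^ 0 * c2 ^ 0) = c0; simp⟩
  have r1 : c1 ∈ π.range := ⟨Multiplicative.ofAdd (0, 1, 0), by show c0 ^ 0 * (c1 ^ 1 * c2 ^ 0) = c1; simp⟩
  have r2 : c2 ∈ π.range := ⟨Multiplicative.ofAdd (0, 0, 1), by show c0 ^ 0 * (c1 ^ 0 * c2 ^ 1) = c2; simp⟩
  have rP : ∀ y : σ.ker, y ∈ (P : Subgroup σ.ker) → y ∈ π.range := fun y hy => by
    obtain ⟨m, hm⟩ := hg ⟨y, hy⟩
    have : y = c0 ^ m := by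
      show y = (g : σ.ker) ^ m
      rw [← Subgroup.coe_zpow]; exact (congrArg Subtype.val hm).symm
    rw [this]; exact zpow_mem r0 _
  have rT : ∀ y : σ.ker, (y : Γ) ∈ tee E → y ∈ π.range := fun y hy => by
    have : tee E ≤ π.range.map σ.ker.subtype := by
      rw [tee, Subgroup.closure_le]
      rintro x (rfl | rfl)
      exacts [⟨c1, r1, rfl⟩, ⟨c2, r2, rfl⟩]
    obtain ⟨u, hu, he⟩ := this hy
    rwa [← Subtype.ext he]
  -- split the order
  obtain ⟨e, r, hr, her⟩ := Nat.exists_eq_pow_mul_and_not_dvd (orderOf_pos z).ne' 2 (by norm_num)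
  have hr3 : r ∣ 3 := by
    have hrk : r ∣ Nat.card σ.ker := (Dvd.intro_left (2 ^ e) her.symm).trans (orderOf_dvd_natCard z)
    have hr0 : r ≠ 0 := by rintro rfl; exact hr (dvd_zero 2)
    have hpow := Nat.eq_prime_pow_of_unique_prime_dvd hr0 (p := 3) fun {d} hd hdr => by
      by_contra h
      exact not_dvd_ker hσ hd (fun e2 => hr (e2 ▸ hdr)) h (hdr.trans hrk)
    rw [hpow] at hrk ⊢
    refine (pow_dvd_pow 3 ?_).trans (pow_one 3).dvd
    by_contra h
    exact h9 ((pow_dvd_pow 3 (by omega)).trans hrk)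
  have hsplit : z ^ r ∈ π.range ∧ z ^ 2 ^ e ∈ π.range := by
    constructor
    · refine rT _ (htwo _ (z ^ r).2 e ?_)
      rw [← Subgroup.coe_pow, ← pow_mul, mul_comm, ← her, pow_orderOf_eq_one, Subgroup.coe_one]
    · refine rP _ (hthree _ (orderOf_dvd_iff_pow_eq_one.1 ?_))
      rw [orderOf_pow, her, Nat.gcd_mul_right_left, Nat.mul_div_cancel_left _ (by positivity)]
      exact hr3
  have hco : Nat.Coprime r (2 ^ e) := ((Nat.prime_two.coprime_iff_not_dvd.2 hr).pow_left e).symm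
  have hbez := Nat.gcd_eq_gcd_ab r (2 ^ e)
  rw [hco.gcd_eq_one, Nat.cast_one] at hbez
  rw [← MonoidHom.mem_range, ← zpow_one z, hbez, zpow_add, zpow_mul, zpow_mul, zpow_natCast, zpow_natCast]
  exact mul_mem (zpow_mem hsplit.1 _) (zpow_mem hsplit.2 _)

theorem hasSchurMultiplier_P3 :
    Cfsg.HasSchurMultiplier P3 (Multiplicative (ZMod 3 × ZMod 4 × ZMod 4)) :=
  ⟨exists_stem, fun _ _ _ σ hσ => exists_surjective σ hσ⟩

end CfsgLib.L34Mult
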