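import Cfsg.Agent.CosetEnum.Suz.G2.Field
import Cfsg.Agent.SuzukiEight.Transfer

/-!
A cocycle with values in `(ℤ/4)²` on the unitriangular group of degree three over the field with four
elements, transferred to `SL₃(4)`.
-/

set_option autoImplicit false

namespace CfsgLib.L34Mult

open CfsgLib.CosetEnum.Suz.G2 Matrix

/-- The coefficient group. -/
abbrev W : Type := ZMod 4 × ZMod 4

/-- An element `A(a) B(b) Z(z)` of the unitriangular group. -/
@[ext] structure U3 where
  /-- the first root coordinate -/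
  a : F4
  /-- the second root coordinate -/
  b : F4
  /-- the central coordinate -/
  z : F4
  deriving DecidableEq, Fintype

namespace U3

/-- The product. -/
def mul (x y : U3) : U3 := ⟨x.a + y.a, x.b + y.b, x.z + y.z + y.a * x.b⟩

/-- The neutral element. -/
def one : U3 := ⟨0, 0, 0⟩

theorem one_mul : ∀ x : U3, mul one x = x := by decide +kernel

theorem mul_assoc (x y z : U3) : mul (mul x y) z = mul x (mul y z) := by
  simp only [mul, U3.mk.injEq]
  exact ⟨by ring, by ring, by ring⟩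

/-- First linear part. -/
def l1 : F4 → W
  | .zero => (0, 0) | .one => (2, 0) | .om => (0, 2) | .om' => (2, 2)

/-- Second linear part. -/
def l2 : F4 → W
  | .zero => (0, 0) | .one => (2, 0) | .om => (2, 2) | .om' => (0, 2)

/-- The part defined on the two roots. -/
def kf : F4 → F4 → W
  | .zero, .zero => (0, 0) | .zero, .one => (0, 0) | .zero, .om => (0, 0) | .zero, .om' => (0, 0)
  | .one, .zero => (0, 0) | .one, .one => (1, 0) | .one, .om => (0, 1) | .one, .om' => (3, 3)
  | .om, .zero => (0, 0) | .om, .one => (3, 1) | .om, .om => (1, 0) | .om, .om' => (0, 3)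
  | .om', .zero => (0, 0) | .om', .one => (0, 3) | .om', .om => (3, 3) | .om', .om' => (1, 2)

/-- The cocycle. -/
def d (x y : U3) : W := l1 (y.a * x.z) + l2 (y.b * (x.z + y.a * x.b)) - kf y.a x.b

theorem d_one_left : ∀ x, d one x = 0 := by decide +kernel

theorem d_one_right : ∀ x, d x one = 0 := by decide +kernel

/-- The cocycle identity at a third argument. -/
def Good (k : U3) : Prop := ∀ x y, d x y + d (mul x y) k = d x (mul y k) + d y k

theorem good_mul {k l : U3} (hk : Good k) (hl : Good l) : Good (mul k l) := fun x y => by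
  have h1 := hl y k
  have h2 := hl x (mul y k)
  have h3 := hl (mul x y) k
  have h4 := hk x y
  rw [mul_assoc x y k] at h3
  rw [mul_assoc y k l] at h2
  linear_combination h4 - h3 + h2 + h1

theorem good_gen : ∀ k ∈ ([⟨1, 0, 0⟩, ⟨.om, 0, 0⟩, ⟨0, 1, 0⟩, ⟨0, .om, 0⟩, ⟨0, 0, 1⟩, ⟨0, 0, .om⟩] : List U3),
    ∀ x y, d x y + d (mul x y) k = d x (mul y k) + d y k := by decide +kernel

theorem good_one : Good one := fun x y => by
  have e : ∀ y, mul y one = y := by decide +kernel
  rw [d_one_right, e, d_one_right]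

/-- The elements built from the generators. -/
def word (k : U3) : List U3 :=
  let bits : F4 → U3 → U3 → List U3 := fun c p q =>
    match c with
    | .zero => [] | .one => [p] | .om => [q] | .om' => [p, q]
  bits k.a ⟨1, 0, 0⟩ ⟨.om, 0, 0⟩ ++ bits k.b ⟨0, 1, 0⟩ ⟨0, .om, 0⟩ ++
    bits k.z ⟨0, 0, 1⟩ ⟨0, 0, .om⟩

theorem word_spec : ∀ k, (word k).foldr mul one = k ∧
    ∀ g ∈ word k, g ∈ ([⟨1, 0, 0⟩, ⟨.om, 0, 0⟩, ⟨0, 1, 0⟩, ⟨0, .om, 0⟩, ⟨0, 0, 1⟩, ⟨0, 0, .om⟩] : List U3) := by
  decide +kernel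

theorem good (k : U3) : Good k := by
  obtain ⟨h1, h2⟩ := word_spec k
  rw [← h1]
  have : ∀ L : List U3, (∀ g ∈ L, Good g) → Good (L.foldr mul one) := by
    intro L
    induction L with
    | nil => exact fun _ => good_one
    | cons g L ih =>
      intro h
      exact good_mul (h g (List.mem_cons_self ..)) (ih fun x hx => h x (List.mem_cons_of_mem _ hx))
  exact this _ fun g hg => good_gen g (h2 g hg)

end U3

/-! ### The action on incident pairs -/

local notation "SL3" => Matrix.SpecialLinearGroup (Fin 3) F4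

/-- A triple. -/
abbrev Vec : Type := F4 × F4 × F4

/-- The scalar product. -/
def dot (v w : Vec) : F4 := v.1 * w.1 + v.2.1 * w.2.1 + v.2.2 * w.2.2

/-- The cross product. -/
def cross (v w : Vec) : Vec :=
  (v.2.1 * w.2.2 - v.2.2 * w.2.1, v.2.2 * w.1 - v.1 * w.2.2, v.1 * w.2.1 - v.2.1 * w.1)

/-- A linear combination. -/
def comb (v a b c : Vec) : Vec :=
  (v.1 * a.1 + v.2.1 * b.1 + v.2.2 * c.1, v.1 * a.2.1 + v.2.1 * b.2.1 + v.2.2 * c.2.1,
    v.1 * a.2.2 + v.2.1 * b.2.2 + v.2.2 * c.2.2)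

/-- A column. -/
def col (g : SL3) (j : Fin 3) : Vec := (g.1 0 j, g.1 1 j, g.1 2 j)

/-- The action on vectors. -/
def mv (g : SL3) (v : Vec) : Vec := comb v (col g 0) (col g 1) (col g 2)

/-- The action on covectors. -/
def vm (g : SL3) (f : Vec) : Vec :=
  comb f (cross (col g 1) (col g 2)) (cross (col g 2) (col g 0)) (cross (col g 0) (col g 1))

theorem det_col (g : SL3) : dot (col g 2) (cross (col g 0) (col g 1)) = 1 := by
  have h := g.2
  rw [Matrix.det_fin_three] at h
  simp only [dot, cross, col]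
  linear_combination h

theorem col_mul (g h : SL3) (j : Fin 3) : col (g * h) j = mv g (col h j) := by
  simp only [col, mv, comb, Matrix.SpecialLinearGroup.coe_mul, Matrix.mul_apply, Fin.sum_univ_three,
    Prod.mk.injEq]
  exact ⟨by ring, by ring, by ring⟩

theorem mv_mul (g h : SL3) (v : Vec) : mv (g * h) v = mv g (mv h v) := by
  conv_lhs => rw [mv, col_mul, col_mul, col_mul]
  simp only [mv, comb, Prod.mk.injEq]
  exact ⟨by ring, by ring, by ring⟩

theorem vm_mul (g h : SL3) (f : Vec) : vm (g * h) f = vm g (vm h f) := by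
  conv_lhs => rw [vm, col_mul, col_mul, col_mul]
  simp only [vm, mv, comb, cross, Prod.mk.injEq]
  exact ⟨by ring, by ring, by ring⟩

theorem col_one : col 1 0 = (1, 0, 0) ∧ col 1 1 = (0, 1, 0) ∧ col 1 2 = (0, 0, 1) := by
  decide +kernel

theorem mv_one (v : Vec) : mv 1 v = v := by
  obtain ⟨h0, h1, h2⟩ := col_one
  obtain ⟨a, b, c⟩ := v
  rw [mv, h0, h1, h2]
  simp [comb]

theorem vm_one (f : Vec) : vm 1 f = f := by
  obtain ⟨h0, h1, h2⟩ := col_one
  obtain ⟨a, b, c⟩ := f
  rw [vm, h0, h1, h2]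
  simp [comb, cross]

theorem dot_vm_mv (g : SL3) (f v : Vec) : dot (vm g f) (mv g v) = dot f v := by
  have h := det_col g
  simp only [dot, vm, mv, comb, cross] at h ⊢
  linear_combination (f.1 * v.1 + f.2.1 * v.2.1 + f.2.2 * v.2.2) * h

theorem mv_zero (g : SL3) : mv g 0 = 0 := by
  simp [mv, comb]

theorem vm_zero (g : SL3) : vm g 0 = 0 := by
  simp [vm, comb]

theorem mv_ne_zero (g : SL3) {v : Vec} (hv : v ≠ 0) : mv g v ≠ 0 := fun h => hv (by
  have := congrArg (mv g⁻¹) h
  rw [← mv_mul, inv_mul_cancel, mv_one] at this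
  rwa [mv_zero] at this)

theorem vm_ne_zero (g : SL3) {v : Vec} (hv : v ≠ 0) : vm g v ≠ 0 := fun h => hv (by
  have := congrArg (vm g⁻¹) h
  rw [← vm_mul, inv_mul_cancel, vm_one] at this
  rwa [vm_zero] at this)

/-- Incident pairs of a nonzero vector and a nonzero covector. -/
abbrev Pt : Type := {x : Vec × Vec // x.1 ≠ 0 ∧ x.2 ≠ 0 ∧ dot x.2 x.1 = 0}

instance : MulAction SL3 Pt where
  smul g x := ⟨(mv g x.1.1, vm g x.1.2),
    mv_ne_zero g x.2.1, vm_ne_zero g x.2.2.1, by rw [dot_vm_mv, x.2.2.2]⟩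
  one_smul x := Subtype.ext (Prod.ext (mv_one _) (vm_one _))
  mul_smul g h x := Subtype.ext (Prod.ext (mv_mul g h _) (vm_mul g h _))

theorem smul_val (g : SL3) (x : Pt) : (g • x).1 = (mv g x.1.1, vm g x.1.2) := rfl

/-- A vector with scalar product one. -/
def piv (v : Vec) : Vec :=
  if v.1 ≠ 0 then (F4.inv' v.1, 0, 0) else if v.2.1 ≠ 0 then (0, F4.inv' v.2.1, 0) else (0, 0, F4.inv' v.2.2)

theorem dot_piv : ∀ v : Vec, v ≠ 0 → dot v (piv v) = 1 := by decide +kernel

/-- The columns of the representative of a point. -/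
def tcol (x : Pt) : Vec × Vec × Vec := (x.1.1, cross x.1.2 (piv x.1.1), piv x.1.2)

theorem tcol_det (x : Pt) : dot (tcol x).2.2 (cross (tcol x).1 (tcol x).2.1) = 1 := by
  have h1 := dot_piv _ x.2.1
  have h2 := dot_piv _ x.2.2.1
  have h0 := x.2.2.2
  simp only [tcol]
  generalize piv x.1.1 = p at *
  generalize piv x.1.2 = q at *
  simp only [dot, cross] at *
  linear_combination (q.1 * x.1.2.1 + q.2.1 * x.1.2.2.1 + q.2.2 * x.1.2.2.2) * h1 + h2 -
    (q.1 * p.1 + q.2.1 * p.2.1 + q.2.2 * p.2.2) * h0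

/-- The representative. -/
def rep (x : Pt) : SL3 :=
  ⟨!![(tcol x).1.1, (tcol x).2.1.1, (tcol x).2.2.1;
      (tcol x).1.2.1, (tcol x).2.1.2.1, (tcol x).2.2.2.1;
      (tcol x).1.2.2, (tcol x).2.1.2.2, (tcol x).2.2.2.2], by
    have h := tcol_det x
    simp only [Matrix.det_fin_three, dot, cross] at h ⊢
    simp
    linear_combination h⟩

/-- The base point. -/
def base : Pt := ⟨((1, 0, 0), (0, 0, 1)), by decide +kernel⟩

theorem col_rep (x : Pt) :
    col (rep x) 0 = (tcol x).1 ∧ col (rep x) 1 = (tcol x).2.1 ∧ col (rep x) 2 = (tcol x).2.2 :=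
  ⟨rfl, rfl, rfl⟩

theorem rep_smul_base (x : Pt) : rep x • base = x := by
  obtain ⟨h0, h1, h2⟩ := col_rep x
  apply Subtype.ext
  rw [smul_val, Prod.ext_iff]
  constructor
  · simp only [base, mv, comb, h0, h1, h2]
    ext <;> simp [tcol]
  · have e1 := dot_piv _ x.2.1
    have e0 := x.2.2.2
    simp only [base, vm, comb, h0, h1, h2]
    simp only [tcol]
    generalize piv x.1.1 = p at *
    simp only [dot, cross] at *
    ext
    · linear_combination x.1.2.1 * e1 - p.1 * e0
    · linear_combination x.1.2.2.1 * e1 - p.2.1 * e0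
    · linear_combination x.1.2.2.2 * e1 - p.2.2 * e0

theorem stab_shape (M : SL3) (h : M • base = base) :
    col M 0 = (1, 0, 0) ∧ M.1 1 1 = 1 ∧ M.1 2 1 = 0 ∧ M.1 2 2 = 1 := by
  have h' := congrArg Subtype.val h
  rw [smul_val, Prod.ext_iff] at h'
  simp only [base, mv, vm, comb] at h'
  obtain ⟨hv, hf⟩ := h'
  simp only [one_mul, zero_mul, add_zero, zero_add, Prod.mk.injEq] at hv hf
  have hc : col M 0 = (1, 0, 0) := Prod.ext hv.1 (Prod.ext hv.2.1 hv.2.2)
  have hd := det_col M
  rw [hc] at hf hd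
  simp only [cross, dot, col, one_mul, zero_mul, mul_zero, sub_zero, zero_sub, mul_one] at hf hd
  obtain ⟨-, h21, h11⟩ := hf
  have h21' : M.1 2 1 = 0 := neg_eq_zero.1 h21
  refine ⟨hc, h11, h21', ?_⟩
  rw [h21', h11] at hd
  linear_combination hd

/-- The coordinates of a unitriangular matrix. -/
def coord (M : SL3) : U3 := ⟨M.1 0 1, M.1 1 2, M.1 0 2 + M.1 0 1 * M.1 1 2⟩

theorem coord_mul {M N : SL3} (hM : M • base = base) (hN : N • base = base) :
    coord (M * N) = U3.mul (coord M) (coord N) := by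
  obtain ⟨hM0, hM1, hM2, hM3⟩ := stab_shape M hM
  obtain ⟨hN0, hN1, hN2, hN3⟩ := stab_shape N hN
  simp only [col, Prod.mk.injEq] at hM0 hN0
  obtain ⟨a1, a2, a3⟩ := hM0
  obtain ⟨b1, b2, b3⟩ := hN0
  have htwo : (2 : F4) = 0 := by decide
  simp only [coord, U3.mul, U3.mk.injEq, Matrix.SpecialLinearGroup.coe_mul, Matrix.mul_apply,
    Fin.sum_univ_three, a1, a2, hM1, hN1, hN2, hN3]
  refine ⟨by ring, by ring, ?_⟩
  linear_combination (M.1 0 1 * N.1 1 2) * htwo

/-- The slip of the representatives. -/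
def slip (g : SL3) (x : Pt) : U3 := coord ((rep (g • x))⁻¹ * g * rep x)

theorem slip_stab (g : SL3) (x : Pt) : ((rep (g • x))⁻¹ * g * rep x) • base = base := by
  rw [mul_smul, mul_smul, rep_smul_base, inv_smul_eq_iff, rep_smul_base]

theorem slip_mul (g h : SL3) (x : Pt) : slip (g * h) x = U3.mul (slip g (h • x)) (slip h x) := by
  rw [slip, slip, slip, ← coord_mul (slip_stab g (h • x)) (slip_stab h x), mul_smul]
  congr 1
  group

theorem slip_one (x : Pt) : slip 1 x = U3.one := by
  rw [slip, one_smul, mul_one, inv_mul_cancel]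
  decide +kernel

/-- The transferred cocycle. -/
def cocycle : SuzukiEight.Cocycle SL3 W where
  f g h := ∑ x : Pt, U3.d (slip g (h • x)) (slip h x)
  one_left g := Finset.sum_eq_zero fun x _ => by rw [slip_one, U3.d_one_left]
  one_right g := Finset.sum_eq_zero fun x _ => by rw [slip_one, U3.d_one_right]
  assoc g h k := by
    have h1 : ∑ x : Pt, U3.d (slip g (h • x)) (slip h x) =
        ∑ x : Pt, U3.d (slip g (h • k • x)) (slip h (k • x)) :=
      (Fintype.sum_equiv (MulAction.toPerm k) _ _ fun x => rfl).symm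
    rw [h1, ← Finset.sum_add_distrib, ← Finset.sum_add_distrib]
    refine Finset.sum_congr rfl fun x _ => ?_
    rw [slip_mul, slip_mul, mul_smul]
    exact U3.good _ _ _

/-- A row of the inverse of a representative times a column of `g * rep x`. -/
def slipFast (g : SL3) (x : Pt) : U3 :=
  let t := tcol x
  let u := tcol (g • x)
  let r0 := cross u.2.1 u.2.2
  let m01 := dot r0 (mv g t.2.1)
  let w2 := mv g t.2.2
  let m12 := dot (cross u.2.2 u.1) w2
  ⟨m01, m12, dot r0 w2 + m01 * m12⟩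

theorem slip_eq_fast (g : SL3) (x : Pt) : slip g x = slipFast g x := by
  set y := g • x
  have hc : ∀ j, col ((rep y)⁻¹ * g * rep x) j = mv (rep y)⁻¹ (mv g (col (rep x) j)) := fun j => by
    rw [col_mul, mv_mul]
  have hM : (rep y).1 = !![(tcol y).1.1, (tcol y).2.1.1, (tcol y).2.2.1;
      (tcol y).1.2.1, (tcol y).2.1.2.1, (tcol y).2.2.2.1;
      (tcol y).1.2.2, (tcol y).2.1.2.2, (tcol y).2.2.2.2] := rfl
  have hi : ∀ v : Vec, mv (rep y)⁻¹ v = (dot (cross (tcol y).2.1 (tcol y).2.2) v,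
      dot (cross (tcol y).2.2 (tcol y).1) v, dot (cross (tcol y).1 (tcol y).2.1) v) := fun v => by
    simp only [mv, col, comb, Matrix.SpecialLinearGroup.coe_inv, hM, Matrix.adjugate_fin_three,
      dot, cross, Prod.mk.injEq]
    simp
    exact ⟨by ring, by ring, by ring⟩
  have h1 := hc 1
  have h2 := hc 2
  rw [(col_rep x).2.1, hi] at h1
  rw [(col_rep x).2.2, hi] at h2
  simp only [col, Prod.mk.injEq] at h1 h2
  rw [slip, coord]
  simp only [slipFast, ← show y = g • x from rfl, h1.1, h2.1, h2.2.1]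

end CfsgLib.L34Mult
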