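import Cfsg.Agent.L34Mult.Cocycle

/-! Two values of the commutator pairing of the transferred cocycle. -/

set_option autoImplicit false

namespace CfsgLib.L34Mult

open CfsgLib.CosetEnum.Suz.G2 Matrix

local notation "SL3" => Matrix.SpecialLinearGroup (Fin 3) F4

/-- A unitriangular matrix. -/
def utri (a b c : F4) : SL3 :=
  ⟨!![1, a, c; 0, 1, b; 0, 0, 1], by simp [Matrix.det_fin_three]⟩

/-- The pairing, computed. -/
def pairing (g h : SL3) : W :=
  ∑ x : Pt, U3.d (slipFast g (h • x)) (slipFast h x) - ∑ x : Pt, U3.d (slipFast h (g • x)) (slipFast g x)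

theorem cocycle_sub (g h : SL3) : cocycle.f g h - cocycle.f h g = pairing g h := by
  simp only [cocycle, pairing, slip_eq_fast]

theorem utri_comm_one : utri 1 1 0 * utri .om .om .om = utri .om .om .om * utri 1 1 0 ∧
    utri 1 .om 0 * utri .om .om' 0 = utri .om .om' 0 * utri 1 .om 0 := by
  decide +kernel

set_option maxHeartbeats 0 in
theorem pairing_one : pairing (utri 1 1 0) (utri .om .om .om) = (1, 0) := by decide +kernel

set_option maxHeartbeats 0 in
theorem pairing_two : pairing (utri 1 .om 0) (utri .om .om' 0) = (2, 1) := by decide +kernel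

end CfsgLib.L34Mult
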