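import Cfsg.Agent.L34Mult.Commutator
import Cfsg.Agent.CosetEnum.Suz.G2.Field
import Cfsg.Agent.PSL34.Model

/-!
In a central extension of `PSL₃(4)` the derived subgroup of the preimage of a Sylow 2-subgroup meets
the kernel in a group generated by two elements of order dividing four.
-/

set_option autoImplicit false

open scoped commutatorElement

namespace CfsgLib.L34Mult

open CfsgLib.CosetEnum.Suz.G2 CfsgLib.PSL34

local notation "P3" => Matrix.ProjectiveSpecialLinearGroup (Fin 3) F4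

theorem f4_add_self : ∀ x : F4, x + x = 0 := by decide

instance : CharP F4 2 := charP_two F4.card_eq

/-- The first root element. -/
abbrev eA (a : F4) : P3 := pu a 0 0
/-- The second root element. -/
abbrev eB (b : F4) : P3 := pu 0 b 0
/-- The central root element. -/
abbrev eZ (c : F4) : P3 := pu 0 0 c

theorem eZ_mul (u v : F4) : eZ u * eZ v = eZ (u + v) := by simp [eZ, pu_mul]
theorem eA_mul (u v : F4) : eA u * eA v = eA (u + v) := by simp [eA, pu_mul]
theorem eB_mul (u v : F4) : eB u * eB v = eB (u + v) := by simp [eB, pu_mul]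
theorem eA_eZ (a c : F4) : eA a * eZ c = pu a 0 c := by simp [eA, eZ, pu_mul]
theorem eB_eZ (b c : F4) : eB b * eZ c = pu 0 b c := by simp [eB, eZ, pu_mul]

theorem pu_decomp (a b c : F4) : pu a b c = eA a * (eB b * eZ (c + a * b)) := by
  simp only [eA, eB, eZ, pu_mul]
  congr 1 <;> simp
  rw [add_assoc, f4_add_self, add_zero]

theorem comm_AA (a a' : F4) : eA a * eA a' = eA a' * eA a := by rw [eA_mul, eA_mul, add_comm]
theorem comm_BB (a a' : F4) : eB a * eB a' = eB a' * eB a := by rw [eB_mul, eB_mul, add_comm]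
theorem comm_ZZ (a a' : F4) : eZ a * eZ a' = eZ a' * eZ a := by rw [eZ_mul, eZ_mul, add_comm]
theorem comm_AZ (a c : F4) : eA a * eZ c = eZ c * eA a := by simp [eA, eZ, pu_mul]
theorem comm_BZ (b c : F4) : eB b * eZ c = eZ c * eB b := by simp [eB, eZ, pu_mul]

theorem eA_inv (a : F4) : (eA a)⁻¹ = eA a := by
  refine inv_eq_of_mul_eq_one_right ?_
  rw [eA_mul, f4_add_self]; exact pu_zero

theorem eB_inv (a : F4) : (eB a)⁻¹ = eB a := by
  refine inv_eq_of_mul_eq_one_right ?_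
  rw [eB_mul, f4_add_self]; exact pu_zero

theorem bracket_AB (a b : F4) : ⁅eA a, eB b⁆ = eZ (a * b) := by
  rw [commutatorElement_def, eA_inv, eB_inv]
  simp [eA, eB, eZ, pu_mul, f4_add_self]

theorem conjB_eA (s a : F4) : eB s * eA a * (eB s)⁻¹ = eA a * eZ (a * s) := by
  rw [eB_inv, eA_eZ]; simp [eA, eB, pu_mul, f4_add_self]

theorem conjA_eB (s b : F4) : eA s * eB b * (eA s)⁻¹ = eB b * eZ (s * b) := by
  rw [eA_inv, eB_eZ]; simp [eA, eB, pu_mul, f4_add_self]

theorem conj_swap12 (a : F4) :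
    toPSL (swap12 (F := F4)) * eZ a * (toPSL (swap12 (F := F4)))⁻¹ = eA a := by
  rw [mul_inv_eq_iff_eq_mul]
  exact (map_mul toPSL _ _).symm.trans ((congrArg toPSL (swap12_mul_uni a)).trans (map_mul toPSL _ _))

theorem conj_swap01 (a : F4) :
    toPSL (swap01 (F := F4)) * eZ a * (toPSL (swap01 (F := F4)))⁻¹ = eB a := by
  rw [mul_inv_eq_iff_eq_mul]
  exact (map_mul toPSL _ _).symm.trans ((congrArg toPSL (swap01_mul_uni a)).trans (map_mul toPSL _ _))

universe u

variable {Γ : Type u} [Group Γ] (E : CExt Γ P3)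

theorem C_ZZ (u v : F4) : E.C (eZ u) (eZ v) = 1 := by
  have := E.C_commutator_eq_one (comm_AZ u v).symm (comm_BZ 1 v).symm
  rwa [bracket_AB, mul_one] at this

theorem C_AA (a a' : F4) : E.C (eA a) (eA a') = 1 := by
  rw [← conj_swap12 a, ← conj_swap12 a']; exact E.C_conj_eq_one _ (C_ZZ E _ _)

theorem C_BB (a a' : F4) : E.C (eB a) (eB a') = 1 := by
  rw [← conj_swap01 a, ← conj_swap01 a']; exact E.C_conj_eq_one _ (C_ZZ E _ _)

theorem C_AZ (a s : F4) : E.C (eA a) (eZ s) = E.C (eA 1) (eZ (a * s)) := by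
  have key : ∀ a a' x y, E.C (eA a * eZ x) (eA a' * eZ y) = 1 →
      E.C (eA a) (eZ y) = E.C (eA a') (eZ x) := by
    intro a a' x y h
    have hx : eZ x * (eA a' * eZ y) = eA a' * eZ y * eZ x := by simp [eA, eZ, pu_mul]; ring_nf
    rw [E.C_mul_left_central hx, E.C_mul_right_central (comm_ZZ x y), E.C_mul_right_central (comm_AZ a y),
      C_ZZ E, C_AA E, E.C_swap (eA a') (eZ x), mul_one, one_mul] at h
    exact inv_mul_eq_one.1 h |>.symm
  have h := key a 1 (a * s) (1 * s) (by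
    rw [← conjB_eA, ← conjB_eA]; exact E.C_conj_eq_one _ (C_AA E _ _))
  rwa [one_mul] at h

theorem C_BZ (b s : F4) : E.C (eB b) (eZ s) = E.C (eB 1) (eZ (s * b)) := by
  have key : ∀ b b' x y, E.C (eB b * eZ x) (eB b' * eZ y) = 1 →
      E.C (eB b) (eZ y) = E.C (eB b') (eZ x) := by
    intro b b' x y h
    have hx : eZ x * (eB b' * eZ y) = eB b' * eZ y * eZ x := by simp [eB, eZ, pu_mul]; ring_nf
    rw [E.C_mul_left_central hx, E.C_mul_right_central (comm_ZZ x y), E.C_mul_right_central (comm_BZ b y),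
      C_ZZ E, C_BB E, E.C_swap (eB b') (eZ x), mul_one, one_mul] at h
    exact inv_mul_eq_one.1 h |>.symm
  have h := key b 1 (s * b) (s * 1) (by
    rw [← conjA_eB, ← conjA_eB]; exact E.C_conj_eq_one _ (C_BB E _ _))
  rwa [mul_one] at h

/-- The first pairing. -/
noncomputable def lam1 (x : F4) : Γ := E.C (eA 1) (eZ x)
/-- The second pairing. -/
noncomputable def lam2 (x : F4) : Γ := E.C (eB 1) (eZ x)
/-- The commutator of the two roots. -/
noncomputable def dd (a b : F4) : Γ := E.C (eA a) (eB b)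

theorem lam1_mem (x : F4) : lam1 E x ∈ Subgroup.center Γ := E.mem_center_C (comm_AZ _ _)
theorem lam2_mem (x : F4) : lam2 E x ∈ Subgroup.center Γ := E.mem_center_C (comm_BZ _ _)

theorem lam1_add (x y : F4) : lam1 E (x + y) = lam1 E x * lam1 E y := by
  rw [lam1, lam1, lam1, ← eZ_mul, E.C_mul_right_central (comm_AZ _ _)]

theorem lam2_add (x y : F4) : lam2 E (x + y) = lam2 E x * lam2 E y := by
  rw [lam2, lam2, lam2, ← eZ_mul, E.C_mul_right_central (comm_BZ _ _)]

theorem lam1_zero : lam1 E 0 = 1 := by rw [lam1, show eZ (0 : F4) = 1 from pu_zero, E.C_one_right]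
theorem lam2_zero : lam2 E 0 = 1 := by rw [lam2, show eZ (0 : F4) = 1 from pu_zero, E.C_one_right]

theorem lam1_sq (x : F4) : lam1 E x * lam1 E x = 1 := by rw [← lam1_add, f4_add_self, lam1_zero]
theorem lam2_sq (x : F4) : lam2 E x * lam2 E x = 1 := by rw [← lam2_add, f4_add_self, lam2_zero]

theorem σ_dd (a b : F4) : E.σ (dd E a b) = eZ (a * b) := by rw [dd, E.σ_C, bracket_AB]

theorem commute_over_Z {x y : Γ} {u v : F4} (hx : E.σ x = eZ u) (hy : E.σ y = eZ v) : Commute x y :=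
  commutatorElement_eq_one_iff_mul_comm.1 (by rw [E.C_eq hx hy, C_ZZ E])

theorem dd_zero_left (b : F4) : dd E 0 b = 1 := by rw [dd, show eA (0 : F4) = 1 from pu_zero, E.C_one_left]
theorem dd_zero_right (a : F4) : dd E a 0 = 1 := by rw [dd, show eB (0 : F4) = 1 from pu_zero, E.C_one_right]

theorem dd_add_left (a a' b : F4) :
    dd E (a + a') b = lam1 E (a * (a' * b)) * dd E a' b * dd E a b := by
  rw [dd, ← eA_mul, E.C_mul_left, E.conj_eq (E.σ_lift _) ((E.σ_C _ _).trans (bracket_AB a' b)), C_AZ E]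
  rfl

theorem dd_add_right (a b b' : F4) :
    dd E a (b + b') = dd E a b * (lam2 E (a * b' * b) * dd E a b') := by
  rw [dd, ← eB_mul, E.C_mul_right, E.conj_eq (E.σ_lift _) ((E.σ_C _ _).trans (bracket_AB a b')), C_BZ E]
  rfl

theorem dd_sq1 (a b : F4) : dd E a b * dd E a b = lam1 E (a * (a * b)) := by
  have h := dd_add_left E a a b
  rw [f4_add_self, dd_zero_left, mul_assoc] at h
  calc dd E a b * dd E a b = (lam1 E (a * (a * b)) * lam1 E (a * (a * b))) * (dd E a b * dd E a b) := by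
        rw [lam1_sq, one_mul]
    _ = lam1 E (a * (a * b)) * (lam1 E (a * (a * b)) * (dd E a b * dd E a b)) := mul_assoc _ _ _
    _ = lam1 E (a * (a * b)) := by rw [← h, mul_one]

theorem dd_sq2 (a b : F4) : dd E a b * dd E a b = lam2 E (a * b * b) := by
  have h := dd_add_right E a b b
  rw [f4_add_self, dd_zero_right] at h
  have hc := Subgroup.mem_center_iff.1 (lam2_mem E (a * b * b)) (dd E a b)
  rw [← mul_assoc, hc, mul_assoc] at h
  calc dd E a b * dd E a b = (lam2 E (a * b * b) * lam2 E (a * b * b)) * (dd E a b * dd E a b) := by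
        rw [lam2_sq, one_mul]
    _ = lam2 E (a * b * b) * (lam2 E (a * b * b) * (dd E a b * dd E a b)) := mul_assoc _ _ _
    _ = lam2 E (a * b * b) := by rw [← h, mul_one]

/-- The first generator of the kernel part. -/
noncomputable def k1 : Γ := dd E 1 .om * (dd E .om 1)⁻¹
/-- The second generator of the kernel part. -/
noncomputable def k2 : Γ := dd E 1 1 * dd E 1 .om * (dd E .om .om)⁻¹

theorem k1_mem : k1 E ∈ E.σ.ker := by
  rw [MonoidHom.mem_ker, k1, map_mul, map_inv, σ_dd, σ_dd, mul_one, one_mul, mul_inv_cancel]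

theorem k2_mem : k2 E ∈ E.σ.ker := by
  rw [MonoidHom.mem_ker, k2, map_mul, map_mul, map_inv, σ_dd, σ_dd, σ_dd, eZ_mul, mul_inv_eq_one]
  exact congrArg eZ (show (1 * 1 + 1 * F4.om : F4) = F4.om * F4.om by decide)

theorem k1_sq : k1 E * k1 E = lam1 E 1 := by
  have hc : Commute (dd E 1 .om) (dd E .om 1)⁻¹ := (commute_over_Z E (σ_dd E _ _) (σ_dd E _ _)).inv_right
  rw [k1, hc.symm.mul_mul_mul_comm, ← mul_inv_rev, dd_sq1, dd_sq1, mul_inv_eq_iff_eq_mul, ← lam1_add]
  exact congrArg (lam1 E) (by decide)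

theorem k2_sq : k2 E * k2 E = lam1 E .om := by
  have hp : Commute (dd E 1 1) (dd E 1 .om) := commute_over_Z E (σ_dd E _ _) (σ_dd E _ _)
  have hc : Commute (dd E 1 1 * dd E 1 .om) (dd E .om .om)⁻¹ :=
    ((commute_over_Z E (σ_dd E _ _) (σ_dd E _ _)).mul_left
      (commute_over_Z E (σ_dd E _ _) (σ_dd E _ _))).inv_right
  rw [k2, hc.symm.mul_mul_mul_comm, hp.symm.mul_mul_mul_comm, ← mul_inv_rev, dd_sq1, dd_sq1, dd_sq1,
    mul_inv_eq_iff_eq_mul, ← lam1_add, ← lam1_add]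
  exact congrArg (lam1 E) (by decide)

/-- The kernel part. -/
noncomputable def tee : Subgroup Γ := Subgroup.closure {k1 E, k2 E}

theorem tee_le : tee E ≤ E.σ.ker := (Subgroup.closure_le _).2 (by
  rintro x (rfl | rfl)
  exacts [k1_mem E, k2_mem E])

theorem k1_in : k1 E ∈ tee E := Subgroup.subset_closure (Or.inl rfl)
theorem k2_in : k2 E ∈ tee E := Subgroup.subset_closure (Or.inr rfl)

theorem lam1_in : ∀ x, lam1 E x ∈ tee E
  | .zero => by rw [show (F4.zero : F4) = 0 from rfl, lam1_zero]; exact one_mem _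
  | .one => by rw [show (F4.one : F4) = 1 from rfl, ← k1_sq]; exact mul_mem (k1_in E) (k1_in E)
  | .om => by rw [← k2_sq]; exact mul_mem (k2_in E) (k2_in E)
  | .om' => by
    rw [show F4.om' = 1 + F4.om from rfl, lam1_add, ← k1_sq, ← k2_sq]
    exact mul_mem (mul_mem (k1_in E) (k1_in E)) (mul_mem (k2_in E) (k2_in E))

theorem lam2_in (x : F4) : lam2 E x ∈ tee E := by
  have h : ∀ x : F4, ∃ a b : F4, a * b * b = x := by decide
  obtain ⟨a, b, rfl⟩ := h x
  rw [← dd_sq2, dd_sq1]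
  exact lam1_in E _

theorem pow_four {k : Γ} {x : F4} (hk : k * k = lam1 E x) : k ^ 4 = 1 := by
  rw [show (4 : ℕ) = 2 + 2 from rfl, pow_add, pow_two, hk, lam1_sq]

theorem k1_pow_four : k1 E ^ 4 = 1 := pow_four E (k1_sq E)
theorem k2_pow_four : k2 E ^ 4 = 1 := pow_four E (k2_sq E)

/-- Products of powers of two basic commutators and a kernel element. -/
noncomputable def em : Subgroup Γ where
  carrier := {x | ∃ i j : ℤ, ∃ t ∈ tee E, x = dd E 1 1 ^ i * dd E 1 .om ^ j * t}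
  one_mem' := ⟨0, 0, 1, one_mem _, by simp⟩
  mul_mem' := by
    rintro _ _ ⟨i, j, t, ht, rfl⟩ ⟨i', j', t', ht', rfl⟩
    refine ⟨i + i', j + j', t * t', mul_mem ht ht', ?_⟩
    have hc : ∀ y, Commute y t := fun y => Subgroup.mem_center_iff.1 (E.central (tee_le E ht)) y
    have hde : Commute (dd E 1 .om ^ j) (dd E 1 1 ^ i') :=
      ((commute_over_Z E (σ_dd E 1 .om) (σ_dd E 1 1)).zpow_zpow _ _)
    rw [(hc _).symm.mul_mul_mul_comm, hde.mul_mul_mul_comm, zpow_add, zpow_add]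
  inv_mem' := by
    rintro _ ⟨i, j, t, ht, rfl⟩
    refine ⟨-i, -j, t⁻¹, inv_mem ht, ?_⟩
    have hc : ∀ y, Commute y t⁻¹ := fun y => Subgroup.mem_center_iff.1 (inv_mem (E.central (tee_le E ht))) y
    have hde : Commute (dd E 1 .om ^ (-j)) (dd E 1 1 ^ (-i)) :=
      ((commute_over_Z E (σ_dd E 1 .om) (σ_dd E 1 1)).zpow_zpow _ _)
    rw [mul_inv_rev, mul_inv_rev, ← zpow_neg, ← zpow_neg, hde.eq, ← (hc _).eq]

theorem tee_le_em : tee E ≤ em E := fun t ht => ⟨0, 0, t, ht, by simp⟩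

theorem d11_in : dd E 1 1 ∈ em E := ⟨1, 0, 1, one_mem _, by simp⟩
theorem d1w_in : dd E 1 .om ∈ em E := ⟨0, 1, 1, one_mem _, by simp⟩

theorem dw1_in : dd E .om 1 ∈ em E := by
  have : dd E .om 1 = (k1 E)⁻¹ * dd E 1 .om := by rw [k1]; group
  rw [this]
  exact mul_mem (inv_mem (tee_le_em E (k1_in E))) (d1w_in E)

theorem dww_in : dd E .om .om ∈ em E := by
  have : dd E .om .om = (k2 E)⁻¹ * (dd E 1 1 * dd E 1 .om) := by rw [k2]; group
  rw [this]
  exact mul_mem (inv_mem (tee_le_em E (k2_in E))) (mul_mem (d11_in E) (d1w_in E))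

theorem dd_in_right (a : F4) (h1 : dd E a 1 ∈ em E) (hw : dd E a .om ∈ em E) : ∀ b, dd E a b ∈ em E
  | .zero => by rw [show (F4.zero : F4) = 0 from rfl, dd_zero_right]; exact one_mem _
  | .one => h1
  | .om => hw
  | .om' => by
    rw [show F4.om' = 1 + F4.om from rfl, dd_add_right]
    exact mul_mem h1 (mul_mem (tee_le_em E (lam2_in E _)) hw)

theorem dd_in : ∀ a b, dd E a b ∈ em E
  | .zero, b => by rw [show (F4.zero : F4) = 0 from rfl, dd_zero_left]; exact one_mem _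
  | .one, b => dd_in_right E _ (d11_in E) (d1w_in E) b
  | .om, b => dd_in_right E _ (dw1_in E) (dww_in E) b
  | .om', b => by
    rw [show F4.om' = 1 + F4.om from rfl, dd_add_left]
    exact mul_mem (mul_mem (tee_le_em E (lam1_in E _)) (dd_in_right E _ (dw1_in E) (dww_in E) b))
      (dd_in_right E _ (d11_in E) (d1w_in E) b)

theorem eZ_zpow (u : F4) : ∀ i : ℤ, (Even i → eZ u ^ i = 1) ∧ (Odd i → eZ u ^ i = eZ u) := by
  have h2 : eZ u ^ (2 : ℤ) = 1 := by
    rw [zpow_two, eZ_mul, f4_add_self]; exact pu_zero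
  intro i
  refine ⟨?_, ?_⟩
  · rintro ⟨m, rfl⟩
    rw [show m + m = 2 * m by ring, zpow_mul, h2, one_zpow]
  · rintro ⟨m, rfl⟩
    rw [zpow_add, zpow_mul, h2, one_zpow, one_mul, zpow_one]

theorem em_ker {x : Γ} (hx : x ∈ em E) (hk : E.σ x = 1) : x ∈ tee E := by
  obtain ⟨i, j, t, ht, rfl⟩ := hx
  rw [map_mul, map_mul, map_zpow, map_zpow, σ_dd, σ_dd, show E.σ t = 1 from tee_le E ht, mul_one,
    one_mul, one_mul] at hk
  have hne : ∀ u v : F4, eZ u = eZ v → u = v := fun u v h =>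
    (pu_injective (w := F4.om) (by decide) h).2.2
  have h1 : eZ (1 : F4) ≠ 1 := fun h => by
    rw [← pu_zero] at h; exact absurd (hne _ _ h) (by decide)
  have hw : eZ F4.om ≠ 1 := fun h => by
    rw [← pu_zero] at h; exact absurd (hne _ _ h) (by decide)
  have h3 : eZ (1 : F4) * eZ F4.om ≠ 1 := fun h => by
    rw [eZ_mul, ← pu_zero] at h; exact absurd (hne _ _ h) (by decide)
  rcases Int.even_or_odd i with hi | hi <;> rcases Int.even_or_odd j with hj | hj
  · obtain ⟨m, rfl⟩ := hi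
    obtain ⟨n, rfl⟩ := hj
    rw [← two_mul, ← two_mul, zpow_mul, zpow_mul, zpow_two, zpow_two, dd_sq1, dd_sq1]
    exact mul_mem (mul_mem (zpow_mem (lam1_in E _) _) (zpow_mem (lam1_in E _) _)) ht
  · rw [(eZ_zpow 1 i).1 hi, (eZ_zpow F4.om j).2 hj, one_mul] at hk
    exact absurd hk hw
  · rw [(eZ_zpow 1 i).2 hi, (eZ_zpow F4.om j).1 hj, mul_one] at hk
    exact absurd hk h1
  · rw [(eZ_zpow 1 i).2 hi, (eZ_zpow F4.om j).2 hj] at hk
    exact absurd hk h3

theorem σ_em {x : Γ} (hx : x ∈ em E) : ∃ v, E.σ x = eZ v := by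
  obtain ⟨i, j, t, ht, rfl⟩ := hx
  rw [map_mul, map_mul, map_zpow, map_zpow, σ_dd, σ_dd, show E.σ t = 1 from tee_le E ht, mul_one,
    one_mul, one_mul]
  rcases Int.even_or_odd i with hi | hi <;> rcases Int.even_or_odd j with hj | hj
  · exact ⟨0, by rw [(eZ_zpow 1 i).1 hi, (eZ_zpow F4.om j).1 hj, one_mul]; exact pu_zero.symm⟩
  · exact ⟨F4.om, by rw [(eZ_zpow 1 i).1 hi, (eZ_zpow F4.om j).2 hj, one_mul]⟩
  · exact ⟨1, by rw [(eZ_zpow 1 i).2 hi, (eZ_zpow F4.om j).1 hj, mul_one]⟩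
  · exact ⟨_, by rw [(eZ_zpow 1 i).2 hi, (eZ_zpow F4.om j).2 hj, eZ_mul]⟩

theorem C_uZ_in (a b c v : F4) : E.C (eA a * (eB b * eZ c)) (eZ v) ∈ tee E := by
  have h1 : eB b * eZ c * eZ v = eZ v * (eB b * eZ c) := by simp [eB, eZ, pu_mul]; ring_nf
  rw [E.C_mul_left_central h1, E.C_mul_left_central (comm_ZZ c v), C_ZZ E, one_mul, C_AZ E, C_BZ E]
  exact mul_mem (lam2_in E _) (lam1_in E _)

theorem conj_in {x d : Γ} {a b c : F4} (hx : E.σ x = pu a b c) (hd : d ∈ em E) :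
    x * d * x⁻¹ ∈ em E := by
  obtain ⟨v, hv⟩ := σ_em E hd
  rw [E.conj_eq hx hv, pu_decomp]
  exact mul_mem (tee_le_em E (C_uZ_in E _ _ _ _)) hd

/-- A product of three root elements has its commutators in `em` when the factors do. -/
theorem C_left_in (a b c : F4) (h : P3) (hA : E.C (eA a) h ∈ em E) (hB : E.C (eB b) h ∈ em E)
    (hZ : E.C (eZ c) h ∈ em E) : E.C (eA a * (eB b * eZ c)) h ∈ em E := by
  rw [E.C_mul_left, E.C_mul_left]
  exact mul_mem (conj_in E (E.σ_lift _) (mul_mem (conj_in E (E.σ_lift _) hZ) hB)) hA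

theorem C_right_in (g : P3) (a b c : F4) (hA : E.C g (eA a) ∈ em E) (hB : E.C g (eB b) ∈ em E)
    (hZ : E.C g (eZ c) ∈ em E) : E.C g (eA a * (eB b * eZ c)) ∈ em E := by
  rw [E.C_mul_right, E.C_mul_right]
  exact mul_mem hA (conj_in E (E.σ_lift _) (mul_mem hB (conj_in E (E.σ_lift _) hZ)))

theorem C_uni_in (a b c a' b' c' : F4) : E.C (pu a b c) (pu a' b' c') ∈ em E := by
  have hAZ : ∀ a v, E.C (eA a) (eZ v) ∈ em E := fun a v => by
    rw [C_AZ E]; exact tee_le_em E (lam1_in E _)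
  have hBZ : ∀ a v, E.C (eB a) (eZ v) ∈ em E := fun a v => by
    rw [C_BZ E]; exact tee_le_em E (lam2_in E _)
  rw [pu_decomp, pu_decomp a']
  apply C_left_in <;> apply C_right_in
  · rw [C_AA E]; exact one_mem _
  · exact dd_in E _ _
  · exact hAZ _ _
  · rw [E.C_swap]; exact inv_mem (dd_in E _ _)
  · rw [C_BB E]; exact one_mem _
  · exact hBZ _ _
  · rw [E.C_swap]; exact inv_mem (hAZ _ _)
  · rw [E.C_swap]; exact inv_mem (hBZ _ _)
  · rw [C_ZZ E]; exact one_mem _

/-- A kernel element in the derived subgroup of the preimage of a group of normal forms. -/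
theorem mem_tee {U : Subgroup P3} (hU : ∀ x ∈ U, ∃ a b c : F4, pu a b c = x) {z : Γ}
    (hz : z ∈ E.σ.ker) (hz' : z ∈ ⁅U.comap E.σ, U.comap E.σ⁆) : z ∈ tee E := by
  refine em_ker E ((?_ : ⁅U.comap E.σ, U.comap E.σ⁆ ≤ em E) hz') hz
  rw [Subgroup.commutator_le]
  intro x hx y hy
  obtain ⟨a, b, c, e⟩ := hU _ hx
  obtain ⟨a', b', c', e'⟩ := hU _ hy
  rw [E.C_eq e.symm e'.symm]
  exact C_uni_in E _ _ _ _ _ _

end CfsgLib.L34Mult
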